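import Cfsg.Agent.BX.L33.Model
import Cfsg.Agent.S0033
import Cfsg.Agent.S1545
set_option linter.all false

/-!
# `L₃(3)` normalises no nontrivial subgroup without fixed points of its Sylow 13- and 3-subgroups (helper28)

Thompson's theorem makes the subgroup `N` nilpotent; Wielandt's fixed point formula for `13:3` and for `3^(1+2)`
shows that `|N|` is a 21st power.
-/

set_option autoImplicit false

namespace Cfsg.Agent.BX.L33

open Subgroup
open scoped Pointwise

variable {G : Type*} [Group G]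

theorem cent_zpowers (x : G) : centralizer ((zpowers x : Subgroup G) : Set G) = centralizer {x} := by
  ext g
  rw [mem_centralizer_iff, mem_centralizer_singleton_iff]
  constructor
  · intro h
    exact (h x (mem_zpowers x)).symm
  · rintro h _ ⟨k, rfl⟩
    exact ((Commute.zpow_right (show Commute g x from h) k).eq).symm

theorem conj_zpowers (g x : G) : (MulAut.conj g • zpowers x : Subgroup G) = zpowers (g * x * g⁻¹) := by
  exact MonoidHom.map_zpowers (MulAut.conj g).toMonoidHom x

theorem mem_zp_prime [Finite G] {K : Subgroup G} {p : ℕ} (hp : p.Prime) (hK : Nat.card K = p) {x y : G}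
    (hx : x ∈ K) (hx1 : x ≠ 1) (hy : y ∈ K) : y ∈ zpowers x := by
  haveI : Fact p.Prime := ⟨hp⟩
  obtain ⟨k, hk⟩ := mem_zpowers_of_prime_card hK (g := ⟨x, hx⟩) (g' := ⟨y, hy⟩)
    (fun h => hx1 (congrArg Subtype.val h))
  exact ⟨k, congrArg Subtype.val hk⟩

/-- a fixed-point-free element of prime order -/
theorem fpf_facts [Finite G] (N : Subgroup G) (a : G) (p : ℕ) (hp : p.Prime) (oa : orderOf a = p)
    (haN : a ∈ normalizer (N : Set G)) (hC : N ⊓ centralizer {a} = ⊥) :
    Group.IsSolvable N ∧ Nat.card N ≡ 1 [MOD p] := by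
  classical
  haveI : Fact p.Prime := ⟨hp⟩
  let φ : MulAut N := N.normalizerMonoidHom ⟨a, haN⟩
  have hφ : ∀ n : N, ((φ n : N) : G) = a * n * a⁻¹ := fun _ => rfl
  have hfix : ∀ n : N, φ n = n → n = 1 := by
    intro n hn
    have h1 : a * n * a⁻¹ = n := by rw [← hφ, hn]
    have h2 : (n : G) ∈ N ⊓ centralizer {a} := by
      refine ⟨n.2, mem_centralizer_singleton_iff.2 ?_⟩
      calc (n : G) * a = a * n * a⁻¹ * a := by rw [h1]
        _ = a * n := by group
    rw [hC, mem_bot] at h2
    exact Subtype.ext h2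
  have hpow : φ ^ p = 1 := by
    rw [← map_pow]
    have : (⟨a, haN⟩ : normalizer (N : Set G)) ^ p = 1 := Subtype.ext (by
      change a ^ p = 1
      rw [← oa, pow_orderOf_eq_one])
    rw [this, map_one]
  constructor
  · by_cases h1 : φ = 1
    · have : Subsingleton N := ⟨fun x y => by
        rw [hfix x (by rw [h1]; rfl), hfix y (by rw [h1]; rfl)]⟩
      infer_instance
    · have := Cfsg.Agent.S0033.result φ (fun n hn => hfix n hn) p hp (orderOf_eq_prime hpow h1)
      infer_instance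
  · haveI := Fintype.ofFinite N
    let f : Function.End N := fun n => φ n
    have h1 : f ^ p ^ 1 = 1 := by
      rw [pow_one]
      have h2 : ∀ (k : ℕ) (n : N), (f ^ k) n = (φ ^ k) n := by
        intro k
        induction k with
        | zero => intro n; rfl
        | succ k ih => intro n; rw [pow_succ, pow_succ]; exact ih (φ n)
      funext n
      rw [h2, hpow]
      rfl
    have h2 := Equiv.Perm.card_fixedPoints_modEq h1
    rw [Nat.card_eq_fintype_card]
    refine h2.trans ?_
    have h3 : Fintype.card (Function.fixedPoints f) = 1 :=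
      Fintype.card_eq_one_iff.2 ⟨⟨1, (map_one φ : φ 1 = 1)⟩, fun x => Subtype.ext (hfix _ x.2)⟩
    rw [h3]

namespace Data

variable {H : Subgroup G} (D : Data H)

theorem U0 : D.U 0 = 1 := by
  have h := D.mul 0 0
  rw [show hm 0 0 = 0 from by decide] at h
  exact mul_left_cancel (a := D.U 0) (by rw [h, mul_one])

theorem U3 (p : V3) : D.U p ^ 3 = 1 := by
  rw [pow_succ, pow_two, D.mul, D.mul, show hm (hm p p) p = 0 from by revert p; decide, D.U0]

theorem oU {p : V3} (hp : p ≠ 0) : orderOf (D.U p) = 3 :=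
  orderOf_eq_prime (D.U3 p) fun h => hp (D.inj (h.trans D.U0.symm))

/-- the Sylow 3-subgroup -/
def R : Subgroup G where
  carrier := Set.range D.U
  mul_mem' := by
    rintro _ _ ⟨p, rfl⟩ ⟨q, rfl⟩
    exact ⟨_, (D.mul p q).symm⟩
  one_mem' := ⟨0, D.U0⟩
  inv_mem' := by
    rintro _ ⟨p, rfl⟩
    refine ⟨hm p p, eq_inv_of_mul_eq_one_left ?_⟩
    rw [← D.mul, ← pow_two, ← pow_succ, D.U3]

theorem R_le : D.R ≤ H := by
  rintro _ ⟨p, rfl⟩
  exact D.UH p

theorem card_R : Nat.card D.R = 27 := by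
  change Nat.card (Set.range D.U) = 27
  rw [Nat.card_range_of_injective D.inj]
  simp

theorem mem_zp (p : V3) {q : V3} (hq : q ≠ 0) :
    D.U p ∈ zpowers (D.U q) ↔ p = 0 ∨ p = q ∨ p = hm q q := by
  classical
  constructor
  · intro h
    rw [(isOfFinOrder_iff_pow_eq_one.2 ⟨3, by norm_num, D.U3 q⟩).mem_zpowers_iff_mem_range_orderOf,
      D.oU hq, Finset.mem_image] at h
    obtain ⟨k, hk, h⟩ := h
    rw [Finset.mem_range] at hk
    interval_cases k
    · left
      exact D.inj (by rw [← h, D.U0, pow_zero])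
    · right; left
      exact D.inj (by rw [← h, pow_one])
    · right; right
      exact D.inj (by rw [← h, pow_two, D.mul])
  · rintro (rfl | rfl | rfl)
    · rw [D.U0]; exact one_mem _
    · exact mem_zpowers _
    · rw [← D.mul]; exact mul_mem (mem_zpowers _) (mem_zpowers _)

theorem rho_ne (i : Fin 13) : rho i ≠ 0 := by revert i; decide

theorem wiel [Finite G] (N : Subgroup G) (hHN : H ≤ normalizer (N : Set G)) (hs : Group.IsSolvable N)
    (h3 : ¬ 3 ∣ Nat.card N) (hCR : N ⊓ centralizer (D.R : Set G) = ⊥) :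
    Nat.card ↥(N ⊓ centralizer {D.U (1, 2, 1)}) ^ 18 * Nat.card ↥(N ⊓ centralizer {D.U (0, 0, 1)}) ^ 21 =
      Nat.card N ^ 12 := by
  classical
  have hcop : (Nat.card D.R).Coprime (Nat.card N) := by
    rw [D.card_R, show 27 = 3 ^ 3 from rfl]
    exact Nat.Coprime.pow_left _ ((Nat.Prime.coprime_iff_not_dvd Nat.prime_three).2 h3)
  have W := Cfsg.Agent.OddOrderCharacters.Wielandt.wielandt D.R N (D.R_le.trans hHN) hcop hs
    (fun i : Fin 13 => zpowers (D.U (rho i))) (fun j : Fin 13 => if j = 0 then D.R else ⊥)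
    (fun i => zpowers_le.2 ⟨_, rfl⟩) (fun j => by
      by_cases h : j = 0
      · simp only [if_pos h]; exact le_rfl
      · simp only [if_neg h]; exact bot_le) (by
      intro f
      by_cases hf : f ∈ D.R
      · obtain ⟨p, rfl⟩ := hf
        have e1 : Nat.card {i : Fin 13 // D.U p ∈ zpowers (D.U (rho i))} =
            Fintype.card {i : Fin 13 // p = 0 ∨ p = rho i ∨ p = hm (rho i) (rho i)} := by
          rw [← Nat.card_eq_fintype_card]
          exact Nat.card_congr (Equiv.subtypeEquivRight fun i => D.mem_zp p (rho_ne i))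
        have e2 : Nat.card {j : Fin 13 // D.U p ∈ (if j = 0 then D.R else ⊥)} =
            Fintype.card {j : Fin 13 // j = 0 ∨ p = 0} := by
          rw [← Nat.card_eq_fintype_card]
          refine Nat.card_congr (Equiv.subtypeEquivRight fun j => ?_)
          by_cases h : j = 0
          · simp only [if_pos h, h, true_or, iff_true]
            exact ⟨p, rfl⟩
          · rw [if_neg h, mem_bot]
            exact ⟨fun h => Or.inr (D.inj (h.trans D.U0.symm)), fun h2 => by rw [h2.resolve_left h, D.U0]⟩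
        rw [e1, e2]
        clear e1 e2
        revert p
        decide +kernel
      · have e1 : IsEmpty {i : Fin 13 // f ∈ zpowers (D.U (rho i))} :=
          ⟨fun i => hf ((zpowers_le.2 ⟨_, rfl⟩ : zpowers (D.U (rho i.1)) ≤ D.R) i.2)⟩
        have e2 : IsEmpty {j : Fin 13 // f ∈ (if j = 0 then D.R else ⊥)} := ⟨fun j => by
          have h2 := j.2
          by_cases h : j.1 = 0
          · rw [if_pos h] at h2; exact hf h2
          · rw [if_neg h, mem_bot] at h2; exact hf (h2 ▸ one_mem _)⟩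
        rw [Nat.card_of_isEmpty, Nat.card_of_isEmpty])
  have hc : ∀ i : Fin 13, Nat.card ↥(N ⊓ centralizer ((zpowers (D.U (rho i)) : Subgroup G) : Set G)) ^
      Nat.card (zpowers (D.U (rho i))) = Nat.card ↥(N ⊓ centralizer {D.U (tg i)}) ^ 3 := by
    intro i
    obtain ⟨g, hg, h⟩ := D.cj i
    rw [Nat.card_zpowers, D.oU (rho_ne i), ← Cfsg.Agent.S1545.card_centralizer_conj N _ g (hHN hg),
      conj_zpowers, cent_zpowers, h, mul_inv_cancel_right]
  have hd : ∀ j : Fin 13, Nat.card ↥(N ⊓ centralizer (((if j = 0 then D.R else ⊥) : Subgroup G) : Set G)) ^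
      Nat.card ↥(if j = 0 then D.R else ⊥ : Subgroup G) = if j = 0 then 1 else Nat.card N := by
    intro j
    by_cases h : j = 0
    · rw [if_pos h, if_pos h, hCR, card_bot, one_pow]
    · rw [if_neg h, if_neg h, card_bot, pow_one, coe_bot, centralizer_eq_top_iff_subset.2 (by simp), inf_top_eq]
  simp only [hc, hd] at W
  have hL : ∀ c : V3 → ℕ, ∏ i : Fin 13, c (tg i) ^ 3 = c (1, 2, 1) ^ 18 * c (0, 0, 1) ^ 21 := by
    intro c
    simp [Fin.prod_univ_succ, tg]
    ring
  have hR : ∀ n : ℕ, (∏ j : Fin 13, if j = 0 then 1 else n) = n ^ 12 := by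
    intro n
    simp [Fin.prod_univ_succ]
  rw [hL fun p => Nat.card ↥(N ⊓ centralizer {D.U p}), hR] at W
  exact W

theorem frob [Finite G] (N : Subgroup G) (hHN : H ≤ normalizer (N : Set G)) (hd : N ⊓ H = ⊥)
    (hs : Group.IsSolvable N) (h3 : ¬ 3 ∣ Nat.card N) (h13 : ¬ 13 ∣ Nat.card N)
    (hC : N ⊓ centralizer {D.a} = ⊥) :
    Nat.card N = Nat.card ↥(N ⊓ centralizer {D.U (1, 2, 1)}) ^ 3 := by
  set b := D.U (1, 2, 1) with hb
  have ob : orderOf b = 3 := D.oU (by decide)
  have cP : Nat.card (zpowers D.a) = 13 := by rw [Nat.card_zpowers, D.oa]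
  have cE : Nat.card (zpowers b) = 3 := by rw [Nat.card_zpowers, ob]
  have hba : b * D.a * b⁻¹ = D.a ^ 3 := by rw [D.ba, mul_inv_cancel_right]
  have hb1 : b ∈ normalizer ((zpowers D.a : Subgroup G) : Set G) := by
    apply mem_normalizer_fintype
    rintro _ ⟨k, rfl⟩
    change b * D.a ^ k * b⁻¹ ∈ _
    rw [← conj_zpow, hba]
    exact zpow_mem (pow_mem (mem_zpowers _) 3) k
  have hEU : zpowers b ≤ normalizer ((zpowers D.a : Subgroup G) : Set G) := zpowers_le.2 hb1
  have hle : zpowers D.a ⊔ zpowers b ≤ H := sup_le (zpowers_le.2 D.aH) (zpowers_le.2 (D.UH _))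
  have hc : Nat.card ↥(zpowers D.a ⊔ zpowers b) = 39 := by
    have h1 : Nat.card ↥(zpowers D.a ⊔ zpowers b) ≤ 13 * 3 := by
      change Nat.card (((zpowers D.a ⊔ zpowers b : Subgroup G) : Set G)) ≤ _
      rw [coe_mul_of_right_le_normalizer_left _ _ hEU, ← cP, ← cE]
      exact Set.natCard_mul_le
    have h2 : 13 ∣ Nat.card ↥(zpowers D.a ⊔ zpowers b) := cP ▸ card_dvd_of_le le_sup_left
    have h4 : 3 ∣ Nat.card ↥(zpowers D.a ⊔ zpowers b) := cE ▸ card_dvd_of_le le_sup_right
    have h5 : 0 < Nat.card ↥(zpowers D.a ⊔ zpowers b) := Nat.card_pos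
    omega
  have hna : ¬ Commute b D.a := by
    intro h
    have h1 : D.a ^ 3 = D.a := by rw [← hba, h.eq, mul_inv_cancel_right]
    have h2 : D.a ^ 2 = 1 := mul_right_cancel (b := D.a) (by rw [← pow_succ, h1, one_mul])
    have := orderOf_dvd_of_pow_eq_one h2
    rw [D.oa] at this
    omega
  haveI : Fact (Nat.Prime 13) := ⟨by norm_num⟩
  have W := Cfsg.Agent.S1545.result (zpowers D.a) (zpowers b) N
    (fun h => by rw [h, card_bot] at cP; omega) (fun h => by rw [h, card_bot] at cE; omega)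
    (disjoint_iff.1 (disjoint_of_coprime_natCard (by rw [cP, cE]; norm_num)))
    (fun e he u hu => (mem_normalizer_iff.1 (hEU he) u).1 hu)
    (by
      intro e he he1 u hu h
      by_contra hu1
      apply hna
      have h1 : b ∈ zpowers e := mem_zp_prime Nat.prime_three cE he he1 (mem_zpowers _)
      have h2 : D.a ∈ zpowers u := mem_zp_prime (by norm_num) cP hu hu1 (mem_zpowers _)
      obtain ⟨k, hk⟩ := h1
      obtain ⟨l, hl⟩ := h2
      rw [← hk, ← hl]
      exact ((show Commute e u from h).zpow_left k).zpow_right l)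
    (fun x hx h hh => (mem_normalizer_iff.1 (hHN (hle hx)) h).1 hh)
    (eq_bot_iff.2 (hd ▸ inf_le_inf_left N hle)) hs
    (by
      rw [hc, show 39 = 3 * 13 from rfl]
      exact Nat.Coprime.mul_right ((Nat.Prime.coprime_iff_not_dvd Nat.prime_three).2 h3).symm
        ((Nat.Prime.coprime_iff_not_dvd (by norm_num)).2 h13).symm)
  have h0 : N ⊓ centralizer ((zpowers D.a ⊔ zpowers b : Subgroup G) : Set G) = ⊥ := by
    rw [eq_bot_iff, ← hC, ← cent_zpowers]
    exact inf_le_inf_left N (centralizer_le (SetLike.coe_subset_coe.2 le_sup_left))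
  rw [h0, cent_zpowers, cent_zpowers, hC, card_bot, one_pow, one_mul, mul_one, cE] at W
  exact W

/-- the affine case -/
theorem affine [Finite G] (N : Subgroup G) (hHN : H ≤ normalizer (N : Set G)) (hd : N ⊓ H = ⊥)
    (h3 : ¬ 3 ∣ Nat.card N) (h13 : ¬ 13 ∣ Nat.card N)
    (hn : Nat.card N ∣ 4154781481226426191177580544000000)
    (hC : N ⊓ centralizer {D.a} = ⊥) (hCR : N ⊓ centralizer (D.R : Set G) = ⊥) : N = ⊥ := by
  obtain ⟨hs, hmod⟩ := fpf_facts N D.a 13 (by norm_num) D.oa (hHN D.aH) hC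
  have h1 := D.wiel N hHN hs h3 hCR
  have h2 := D.frob N hHN hd hs h3 h13 hC
  have hβ : 0 < Nat.card ↥(N ⊓ centralizer {D.U (1, 2, 1)}) := Nat.card_pos
  have hζ : 0 < Nat.card ↥(N ⊓ centralizer {D.U (0, 0, 1)}) := Nat.card_pos
  generalize Nat.card ↥(N ⊓ centralizer {D.U (1, 2, 1)}) = β at h1 h2 hβ
  generalize Nat.card ↥(N ⊓ centralizer {D.U (0, 0, 1)}) = ζ at h1 hζ
  rw [h2] at h1
  have h4 : (ζ ^ 7) ^ 3 = (β ^ 6) ^ 3 := by
    apply Nat.eq_of_mul_eq_mul_left (pow_pos hβ 18)
    calc _ = β ^ 18 * ζ ^ 21 := by ring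
      _ = _ := h1
      _ = _ := by ring
  have h5 : ζ ^ 7 = β ^ 6 := Nat.pow_left_injective (by norm_num) h4
  obtain ⟨m, hm⟩ : ζ ∣ β := (Nat.pow_dvd_pow_iff (n := 6) (by norm_num)).1 ⟨ζ, by rw [← h5]; ring⟩
  have h6 : ζ = m ^ 6 := by
    apply Nat.eq_of_mul_eq_mul_left (pow_pos hζ 6)
    calc _ = ζ ^ 7 := by ring
      _ = _ := h5
      _ = _ := by rw [hm]; ring
  have h7 : Nat.card N = m ^ 21 := by rw [h2, hm, h6]; ring
  rw [h7] at hn hmod
  have h8 : m < 41 := by
    by_contra h
    have h9 := Nat.pow_le_pow_left (not_lt.1 h) 21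
    have h10 := Nat.le_of_dvd (by norm_num) hn
    norm_num at h9
    omega
  have h9 : ∀ m < 41, m ^ 21 ∣ 4154781481226426191177580544000000 → m ^ 21 % 13 = 1 % 13 → m = 1 := by
    decide +kernel
  rw [← card_eq_one, h7, h9 m h8 hn hmod, one_pow]

end Data

end Cfsg.Agent.BX.L33
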