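import Cfsg.Agent.BX.L33.Affine
set_option linter.all false

/-!
# The end-game for `L₃(3)` (helper28)

If `H ≅ L₃(3)`, `H ≤ X` and the normalisers in `X` of a Sylow 13- and a Sylow 3-subgroup of `H` lie in `H`,
then `X = H` (given the list of the orders of the simple groups).
-/

set_option autoImplicit false

namespace Cfsg.Agent.BX.L33

open Subgroup
open scoped Pointwise

variable {G : Type*} [Group G]

theorem card_subgroupOf {P K : Subgroup G} (h : P ≤ K) : Nat.card (P.subgroupOf K) = Nat.card P :=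
  Nat.card_congr (subgroupOfEquivOfLe h).toEquiv

/-- a subgroup of order `p ^ k` of `K` is a Sylow subgroup when `p ^ (k+1)` does not divide `|K|` -/
theorem exists_syl [Finite G] {K P : Subgroup G} {p k : ℕ} [hp : Fact p.Prime] (hP : P ≤ K)
    (cP : Nat.card P = p ^ k) (hk : ¬ p ^ (k + 1) ∣ Nat.card K) :
    ∃ S : Sylow p K, (S : Subgroup K) = P.subgroupOf K := by
  have h1 : Nat.card (P.subgroupOf K) = p ^ k := by rw [card_subgroupOf hP, cP]
  refine ⟨IsPGroup.toSylow (IsPGroup.of_card h1) fun h => hk ?_, rfl⟩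
  rw [← (P.subgroupOf K).card_mul_index, h1, pow_succ]
  exact Nat.mul_dvd_mul_left _ h

theorem syl_conj [Finite G] {K P Q : Subgroup G} {p k : ℕ} (hp : p.Prime) (hP : P ≤ K) (hQ : Q ≤ K)
    (cP : Nat.card P = p ^ k) (cQ : Nat.card Q = p ^ k) (hk : ¬ p ^ (k + 1) ∣ Nat.card K) :
    ∃ h ∈ K, ∀ x, x ∈ P ↔ h * x * h⁻¹ ∈ Q := by
  haveI : Fact p.Prime := ⟨hp⟩
  obtain ⟨S, hS⟩ := exists_syl hP cP hk
  obtain ⟨T, hT⟩ := exists_syl hQ cQ hk
  obtain ⟨h, hh⟩ := MulAction.exists_smul_eq K S T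
  have key : ∀ x : K, (x : G) ∈ P ↔ (h : G) * x * (h : G)⁻¹ ∈ Q := by
    intro x
    have h1 : x ∈ (S : Subgroup K) ↔ h * x * h⁻¹ ∈ (T : Subgroup K) := by
      rw [← hh, Sylow.coe_subgroup_smul]
      exact (smul_mem_pointwise_smul_iff (a := MulAut.conj h)).symm
    rw [hS, hT] at h1
    exact h1
  refine ⟨h, h.2, fun x => ⟨fun hx => (key ⟨x, hP hx⟩).1 hx, fun hx => ?_⟩⟩
  have h2 : x ∈ K := by
    have h3 := K.mul_mem (K.mul_mem (K.inv_mem h.2) (hQ hx)) h.2
    rwa [show (h : G)⁻¹ * (h * x * (h : G)⁻¹) * h = x by group] at h3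
  exact (key ⟨x, h2⟩).2 hx

/-- the test does not depend on the Sylow subgroup -/
theorem test_conj [Finite G] {H X P Q : Subgroup G} (hHX : H ≤ X) {p k : ℕ} (hp : p.Prime) (hP : P ≤ H)
    (hQ : Q ≤ H) (cP : Nat.card P = p ^ k) (cQ : Nat.card Q = p ^ k) (hk : ¬ p ^ (k + 1) ∣ Nat.card H)
    (T : X ⊓ normalizer (P : Set G) ≤ H) : X ⊓ normalizer (Q : Set G) ≤ H := by
  obtain ⟨h, hH, hh⟩ := syl_conj hp hP hQ cP cQ hk
  rintro g ⟨hgX, hg⟩
  have h1 : h⁻¹ * g * h ∈ H := by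
    refine T ⟨X.mul_mem (X.mul_mem (X.inv_mem (hHX hH)) hgX) (hHX hH), mem_normalizer_iff.2 fun x => ?_⟩
    rw [hh, hh, mem_normalizer_iff.1 hg]
    rw [show g * (h * x * h⁻¹) * g⁻¹ = h * (h⁻¹ * g * h * x * (h⁻¹ * g * h)⁻¹) * h⁻¹ by group]
  have h2 := H.mul_mem (H.mul_mem hH h1) (H.inv_mem hH)
  rwa [show h * (h⁻¹ * g * h) * h⁻¹ = g by group] at h2

theorem card_norm_subgroupOf {P K : Subgroup G} (hP : P ≤ K) :
    Nat.card (normalizer ((P.subgroupOf K : Subgroup K) : Set K)) = Nat.card ↥(K ⊓ normalizer (P : Set G)) := by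
  rw [← subgroupOf_normalizer_eq hP, ← inf_subgroupOf_left, card_subgroupOf inf_le_left]

theorem syl_index [Finite G] {K P : Subgroup G} {p k : ℕ} (hp : p.Prime) (hP : P ≤ K)
    (cP : Nat.card P = p ^ k) (hk : ¬ p ^ (k + 1) ∣ Nat.card K) :
    ∃ m, Nat.card K = Nat.card ↥(K ⊓ normalizer (P : Set G)) * m ∧ m ≡ 1 [MOD p] := by
  haveI : Fact p.Prime := ⟨hp⟩
  obtain ⟨S, hS⟩ := exists_syl hP cP hk
  refine ⟨Nat.card (Sylow p K), ?_, card_sylow_modEq_one p K⟩
  rw [S.card_eq_index_normalizer, ← card_norm_subgroupOf hP, ← hS]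
  exact (card_mul_index _).symm

/-- consequences of a test at a Sylow subgroup -/
theorem idx_mod [Finite G] {H X P : Subgroup G} (hHX : H ≤ X) {p k : ℕ} (hp : p.Prime) (hP : P ≤ H)
    (cP : Nat.card P = p ^ k) (hk : ¬ p ^ (k + 1) ∣ Nat.card H) (T : X ⊓ normalizer (P : Set G) ≤ H) :
    ¬ p ^ (k + 1) ∣ Nat.card X ∧ ∀ m, Nat.card X = Nat.card H * m → m ≡ 1 [MOD p] := by
  haveI : Fact p.Prime := ⟨hp⟩
  have h1 : ¬ p ^ (k + 1) ∣ Nat.card X := by
    intro h
    have h2 := Sylow.prime_pow_dvd_card_normalizer h (H := P.subgroupOf X)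
      (by rw [card_subgroupOf (hP.trans hHX), cP])
    rw [card_norm_subgroupOf (hP.trans hHX)] at h2
    exact hk (h2.trans (card_dvd_of_le T))
  refine ⟨h1, fun m hm => ?_⟩
  obtain ⟨m1, e1, f1⟩ := syl_index hp (hP.trans hHX) cP h1
  obtain ⟨m2, e2, f2⟩ := syl_index hp hP cP hk
  have h2 : X ⊓ normalizer (P : Set G) = H ⊓ normalizer (P : Set G) :=
    le_antisymm (le_inf T inf_le_right) (inf_le_inf_right _ hHX)
  rw [h2, hm, e2, mul_assoc] at e1
  have h3 : m2 * m = m1 := Nat.eq_of_mul_eq_mul_left Nat.card_pos e1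
  calc m = 1 * m := (one_mul m).symm
    _ ≡ m2 * m [MOD p] := f2.symm.mul_right m
    _ = m1 := h3
    _ ≡ 1 [MOD p] := f1

/-- Frattini -/
theorem frattini [Finite G] {H X P : Subgroup G} (hHX : H ≤ X) {p k : ℕ} (hp : p.Prime) (hP : P ≤ H)
    (cP : Nat.card P = p ^ k) (hk : ¬ p ^ (k + 1) ∣ Nat.card H) (T : X ⊓ normalizer (P : Set G) ≤ H)
    (hn : X ≤ normalizer (H : Set G)) : X = H := by
  refine le_antisymm (fun x hx => ?_) hHX
  let Q : Subgroup G := P.map (MulAut.conj x).toMonoidHom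
  have hQ : ∀ y, x * y * x⁻¹ ∈ Q ↔ y ∈ P := fun y =>
    mem_map_iff_mem (f := (MulAut.conj x).toMonoidHom) (MulAut.conj x).injective
  have hQH : Q ≤ H := by
    rintro _ ⟨y, hy, rfl⟩
    exact (mem_normalizer_iff.1 (hn hx) y).1 (hP hy)
  have cQ : Nat.card Q = p ^ k := by rw [card_map_of_injective (MulAut.conj x).injective, cP]
  obtain ⟨h, hH, hh⟩ := syl_conj hp hP hQH cP cQ hk
  have h1 : h⁻¹ * x ∈ H := by
    refine T ⟨X.mul_mem (X.inv_mem (hHX hH)) hx, mem_normalizer_iff.2 fun y => ?_⟩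
    rw [hh (h⁻¹ * x * y * (h⁻¹ * x)⁻¹), ← hQ,
      show h * (h⁻¹ * x * y * (h⁻¹ * x)⁻¹) * h⁻¹ = x * y * x⁻¹ by group]
  have h2 := H.mul_mem hH h1
  rwa [mul_inv_cancel_left] at h2

/-- the input from the list of the orders of the simple groups -/
def Sieve (G : Type*) [Group G] : Prop :=
  ∀ S : Subgroup G, IsSimpleGroup S → ∀ m, Nat.card S = 5616 * m → m ≡ 1 [MOD 13] → m ≡ 1 [MOD 3] → m = 1

theorem core [Finite G] {H : Subgroup G} (D : Data H) (hG : Nat.card G ∣ 4154781481226426191177580544000000)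
    (hS : Sieve G) (n : ℕ) : ∀ X : Subgroup G, Nat.card X = n → H ≤ X →
      X ⊓ normalizer ((zpowers D.a : Subgroup G) : Set G) ≤ H → X ⊓ normalizer (D.R : Set G) ≤ H → X = H := by
  induction n using Nat.strong_induction_on with
  | _ n ih =>
  intro X hn hHX T1 T2
  have hP : zpowers D.a ≤ H := zpowers_le.2 D.aH
  have cP : Nat.card (zpowers D.a) = 13 ^ 1 := by rw [Nat.card_zpowers, D.oa, pow_one]
  have k13 : ¬ 13 ^ (1 + 1) ∣ Nat.card H := by rw [D.card]; norm_num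
  have cR : Nat.card D.R = 3 ^ 3 := D.card_R
  have k3 : ¬ 3 ^ (3 + 1) ∣ Nat.card H := by rw [D.card]; norm_num
  obtain ⟨a1, a2⟩ := idx_mod hHX (by norm_num) hP cP k13 T1
  obtain ⟨b1, b2⟩ := idx_mod hHX Nat.prime_three D.R_le cR k3 T2
  by_cases hs : IsSimpleGroup X
  · obtain ⟨m, hm⟩ := card_dvd_of_le hHX
    have h1 := hS X hs m (by rw [hm, D.card]) (a2 m hm) (b2 m hm)
    rw [h1, mul_one] at hm
    exact (eq_of_le_of_card_ge hHX hm.le).symm
  have hnt : Nontrivial X := by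
    rw [← Finite.one_lt_card_iff_nontrivial]
    have := card_le_of_le hHX
    rw [D.card] at this
    omega
  obtain ⟨N', hN'n, hN'1, hN'2⟩ : ∃ N' : Subgroup X, N'.Normal ∧ N' ≠ ⊥ ∧ N' ≠ ⊤ := by
    by_contra hcon
    refine hs ⟨fun N' hN' => ?_⟩
    by_contra h
    exact hcon ⟨N', hN', fun e => h (Or.inl e), fun e => h (Or.inr e)⟩
  set N : Subgroup G := N'.map X.subtype with hN
  have hNX : N ≤ X := map_subtype_le N'
  have cN : Nat.card N = Nat.card N' := card_map_of_injective X.subtype_injective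
  have hXN : X ≤ normalizer (N : Set G) := by
    intro x hx
    apply mem_normalizer_fintype
    rintro _ ⟨y, hy, rfl⟩
    exact ⟨_, hN'n.conj_mem y hy ⟨x, hx⟩, rfl⟩
  have hHN := hHX.trans hXN
  have hnorm : (N.subgroupOf H).Normal := (normal_subgroupOf_iff_le_normalizer_inf (H := N) (K := H)).2 (by
    exact fun h hh => by
      apply mem_normalizer_fintype
      intro y hy
      exact ⟨(mem_normalizer_iff.1 (hHN hh) y).1 hy.1, H.mul_mem (H.mul_mem hh hy.2) (H.inv_mem hh)⟩)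
  rcases D.simple.eq_bot_or_eq_top_of_normal _ hnorm with h | h
  · exfalso
    have hd : N ⊓ H = ⊥ := disjoint_iff.1 (subgroupOf_eq_bot.1 h)
    have hdiv : Nat.card N * Nat.card H ∣ Nat.card X := by
      rw [cN, ← N'.card_mul_index]
      refine Nat.mul_dvd_mul_left _ ?_
      refine card_dvd_of_injective ((QuotientGroup.mk' N').comp (inclusion hHX)) ?_
      rw [injective_iff_map_eq_one]
      intro y hy
      have h1 : inclusion hHX y ∈ N' := (QuotientGroup.eq_one_iff _).1 hy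
      have h2 : (y : G) ∈ N ⊓ H := ⟨⟨_, h1, rfl⟩, y.2⟩
      rw [hd, mem_bot] at h2
      exact Subtype.ext h2
    rw [D.card] at hdiv
    have hb : ∀ K : Subgroup G, X ⊓ normalizer (K : Set G) ≤ H → N ⊓ centralizer (K : Set G) = ⊥ := by
      intro K T
      rw [eq_bot_iff, ← hd]
      exact le_inf inf_le_left ((inf_le_inf hNX (centralizer_le_normalizer _)).trans T)
    have h0 := D.affine N hHN hd
      (fun ⟨c, hc⟩ => b1 (Dvd.dvd.trans ⟨c * 208, by rw [hc]; ring⟩ hdiv))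
      (fun ⟨c, hc⟩ => a1 (Dvd.dvd.trans ⟨c * 432, by rw [hc]; ring⟩ hdiv))
      ((card_subgroup_dvd_card N).trans hG) (by rw [← cent_zpowers]; exact hb _ T1) (hb _ T2)
    exact hN'1 ((map_eq_bot_iff_of_injective N' X.subtype_injective).1 h0)
  · have hHN' : H ≤ N := subgroupOf_eq_top.1 h
    have hlt : Nat.card N < n := by
      rw [cN, ← hn]
      exact lt_of_le_of_ne (card_le_card_group N') fun e => hN'2 ((card_eq_iff_eq_top N').1 e)
    have h1 := ih _ hlt N rfl hHN' ((inf_le_inf_right _ hNX).trans T1) ((inf_le_inf_right _ hNX).trans T2)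
    exact frattini hHX (by norm_num) hP cP k13 T1 (h1 ▸ hXN)

/-- **the end-game for `L₃(3)`** -/
theorem l33_end' [Finite G] (hG : Nat.card G ∣ 4154781481226426191177580544000000) (hS : Sieve G)
    (H X P R : Subgroup G) (e : H ≃* Matrix.ProjectiveSpecialLinearGroup (Fin 3) (ZMod 3)) (hHX : H ≤ X)
    (hP : P ≤ H) (cP : Nat.card P = 13) (hR : R ≤ H) (cR : Nat.card R = 27)
    (T1 : X ⊓ normalizer (P : Set G) ≤ H) (T2 : X ⊓ normalizer (R : Set G) ≤ H) : X = H := by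
  obtain ⟨D⟩ := data_of H e
  refine core D hG hS _ X rfl hHX ?_ ?_
  · exact test_conj hHX (p := 13) (k := 1) (by norm_num) hP (zpowers_le.2 D.aH) cP
      (by rw [Nat.card_zpowers, D.oa, pow_one]) (by rw [D.card]; norm_num) T1
  · exact test_conj hHX (p := 3) (k := 3) Nat.prime_three hR D.R_le cR D.card_R (by rw [D.card]; norm_num) T2

end Cfsg.Agent.BX.L33
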