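import Cfsg.Agent.BX.L33.End
import Cfsg.Agent.BX.Max.Iface
set_option linter.all false

/-!
# Maximality of `L₃(3)` from the two normaliser tests (helper28)
-/

set_option autoImplicit false

namespace Cfsg.Agent.BX.L33

open Subgroup Cfsg.Agent.BX.Max

theorem sieve_of {G : Type} [Group G] [Finite G] (hG : Nat.card G ∣ nB) (hO : Max.Sieve) : L33.Sieve G := by
  intro S hS m hm h13 h3
  have hna : ¬ ∀ a b : S, a * b = b * a := by
    intro h
    letI : CommGroup S := { (inferInstance : Group S) with mul_comm := h }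
    have hp : (Nat.card S).Prime := IsSimpleGroup.prime_card
    rw [hm] at hp
    have := (Nat.prime_dvd_prime_iff_eq Nat.prime_two hp).1 ⟨2808 * m, by ring⟩
    omega
  have h1 := hO.ords S hS hna ((card_subgroup_dvd_card S).trans hG)
  have h2 : ∀ n ∈ oB, n % 5616 = 0 → n / 5616 % 13 = 1 → n / 5616 % 3 = 1 → n = 5616 := by
    decide +kernel
  have h4 : 5616 * m / 5616 = m := Nat.mul_div_cancel_left m (by norm_num)
  rw [hm] at h1
  have h5 := h2 _ h1 (Nat.mul_mod_right _ _) (by rw [h4]; exact h13) (by rw [h4]; exact h3)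
  omega

/-- **maximality of `L₃(3)` from the two tests** -/
theorem coatom33 {G : Type} [Group G] (hO : Max.Sieve) (hG : Nat.card G = nB) {H : Subgroup G}
    (e : Nonempty (H ≃* T33)) (h13 : NT H 13) (h27 : NT H 27) : IsCoatom H := by
  haveI : Finite G := Nat.finite_of_card_ne_zero (by rw [hG]; decide)
  obtain ⟨e⟩ := e
  obtain ⟨P, hP, cP, T1⟩ := h13
  obtain ⟨R, hR, cR, T2⟩ := h27
  constructor
  · intro h
    have h1 : Nat.card H = 5616 := by rw [Nat.card_congr e.toEquiv, card_PSL3]
    rw [h, card_top, hG] at h1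
    revert h1
    decide
  · intro X hX
    by_contra h
    exact hX.ne' (l33_end' (hG ▸ dvd_rfl) (sieve_of (hG ▸ dvd_rfl) hO) H X P R e hX.le hP cP hR cR
      (T1 X hX.le h) (T2 X hX.le h))

/-- the form used in the assembly -/
theorem max33 {G : Type} [Group G] (F : Facts G) (h : Ex33 G) :
    ∃ M : Subgroup G, IsCoatom M ∧ Nonempty (M ≃* T33) := by
  obtain ⟨H, e, h13, h27⟩ := h
  exact ⟨H, coatom33 F.sieve F.loc.card e h13 h27, e⟩

end Cfsg.Agent.BX.L33
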