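import Mathlib
import Cfsg.Agent.S0243
import Cfsg.Agent.S0249
set_option linter.all false

/-!
# Explicit elements of `SL₃(3)` (helper28)

An element `a` of order 13, its normalising element `b = u (1,2,1)` of order 3, the unitriangular group
`u (x,y,w)` with its partition into 13 subgroups of order 3: six conjugate to `<b>`, seven conjugate to each other.
`Data H` packs these facts for a subgroup `H ≅ PSL₃(3)` of an arbitrary group.
-/

set_option autoImplicit false

namespace Cfsg.Agent.BX.L33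

abbrev F3 := ZMod 3
abbrev V3 := F3 × F3 × F3
abbrev SL3 := Matrix.SpecialLinearGroup (Fin 3) F3
abbrev PSL3 := Matrix.ProjectiveSpecialLinearGroup (Fin 3) (ZMod 3)

/-- the product of the unitriangular group in coordinates -/
def hm (p q : V3) : V3 := (p.1 + q.1, p.2.1 + q.2.1, p.2.2 + q.2.2 + p.1 * q.2.1)

/-- generators of the 13 subgroups of order 3 -/
def rho : Fin 13 → V3 :=
  ![(1, 1, 0), (1, 1, 1), (1, 1, 2), (1, 2, 0), (1, 2, 1), (1, 2, 2),
    (0, 0, 1), (0, 1, 0), (0, 1, 1), (0, 1, 2), (1, 0, 0), (1, 0, 1), (1, 0, 2)]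

/-- the target of the conjugation -/
def tg (i : Fin 13) : V3 := if i.val < 6 then (1, 2, 1) else (0, 0, 1)

def um (p : V3) : Matrix (Fin 3) (Fin 3) F3 := !![1, p.1, p.2.2; 0, 1, p.2.1; 0, 0, 1]

def am : Matrix (Fin 3) (Fin 3) F3 := !![0, 0, 1; 1, 0, 1; 0, 1, 0]

def gm : Fin 13 → Matrix (Fin 3) (Fin 3) F3 :=
  ![!![2, 0, 0; 0, 2, 2; 0, 0, 1], !![2, 0, 0; 0, 2, 1; 0, 0, 1], !![2, 0, 0; 0, 2, 0; 0, 0, 1],
    !![1, 0, 0; 0, 1, 2; 0, 0, 1], !![1, 0, 0; 0, 1, 0; 0, 0, 1], !![1, 0, 0; 0, 1, 1; 0, 0, 1],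
    !![1, 0, 0; 0, 1, 0; 0, 0, 1], !![0, 1, 0; 2, 0, 0; 0, 0, 1], !![0, 1, 0; 2, 1, 0; 0, 0, 1],
    !![0, 1, 0; 2, 2, 0; 0, 0, 1], !![1, 0, 0; 0, 0, 2; 0, 1, 0], !![1, 0, 0; 0, 0, 2; 0, 1, 1],
    !![1, 0, 0; 0, 0, 2; 0, 1, 2]]

theorem um_det (p : V3) : (um p).det = 1 := by
  rw [Matrix.det_fin_three]; simp [um]

theorem am_det : am.det = 1 := by
  rw [Matrix.det_fin_three]; decide

theorem gm_det (i : Fin 13) : (gm i).det = 1 := by
  rw [Matrix.det_fin_three]; revert i; decide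

def uS (p : V3) : SL3 := ⟨um p, um_det p⟩
def aS : SL3 := ⟨am, am_det⟩
def gS (i : Fin 13) : SL3 := ⟨gm i, gm_det i⟩

theorem uS_mul (p q : V3) : uS p * uS q = uS (hm p q) := by
  apply Subtype.ext
  change um p * um q = um (hm p q)
  ext i j
  fin_cases i <;> fin_cases j <;> simp [um, hm, Matrix.mul_apply, Fin.sum_univ_three] <;> ring

theorem uS_inj : Function.Injective uS := by
  intro p q h
  have h1 : um p = um q := congrArg Subtype.val h
  have e1 := congrFun (congrFun h1 0) 1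
  have e2 := congrFun (congrFun h1 1) 2
  have e3 := congrFun (congrFun h1 0) 2
  simp [um] at e1 e2 e3
  exact Prod.ext e1 (Prod.ext e2 e3)

theorem gS_conj (i : Fin 13) : gS i * uS (rho i) = uS (tg i) * gS i := by
  apply Subtype.ext
  change gm i * um (rho i) = um (tg i) * gm i
  revert i
  decide +kernel

theorem aS_pow : aS ^ 13 = 1 := by
  apply Subtype.ext
  change am ^ 13 = 1
  decide +kernel

theorem aS_ne : aS ≠ 1 := by
  intro h
  have h1 : am = 1 := congrArg Subtype.val h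
  revert h1
  decide +kernel

theorem bS_conj : uS (1, 2, 1) * aS = aS ^ 3 * uS (1, 2, 1) := by
  apply Subtype.ext
  change um (1, 2, 1) * am = am ^ 3 * um (1, 2, 1)
  decide +kernel

theorem center_SL3 : Subgroup.center SL3 = ⊥ := by
  rw [eq_bot_iff]
  intro A hA
  obtain ⟨r, hr, hA⟩ := Matrix.SpecialLinearGroup.mem_center_iff.1 hA
  have h1 : r = 1 := by
    rw [Fintype.card_fin] at hr
    exact (by decide : ∀ r : F3, r ^ 3 = 1 → r = 1) r hr
  rw [Subgroup.mem_bot]
  apply Subtype.ext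
  rw [← hA, h1, map_one]
  rfl

theorem card_PSL3 : Nat.card PSL3 = 5616 := by
  have h := Cfsg.Agent.S0243.result (F := ZMod 3) (q := 3) (by simp) 3 (by norm_num)
  rw [Fin.prod_univ_three] at h
  have h2 : Nat.gcd 3 (3 - 1) * ((3 - 1) * Nat.card PSL3) = 11232 := h
  have h3 : Nat.gcd 3 (3 - 1) = 1 := by norm_num
  rw [h3] at h2
  omega

/-- the facts about `H ≅ L₃(3)` used in the end-game -/
structure Data {G : Type*} [Group G] (H : Subgroup G) where
  a : G
  U : V3 → G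
  card : Nat.card H = 5616
  simple : IsSimpleGroup H
  aH : a ∈ H
  UH : ∀ p, U p ∈ H
  oa : orderOf a = 13
  mul : ∀ p q, U p * U q = U (hm p q)
  inj : Function.Injective U
  ba : U (1, 2, 1) * a = a ^ 3 * U (1, 2, 1)
  cj : ∀ i, ∃ g ∈ H, g * U (rho i) = U (tg i) * g

theorem data_of {G : Type*} [Group G] (H : Subgroup G) (e : H ≃* PSL3) : Nonempty (Data H) := by
  let π : SL3 →* PSL3 := QuotientGroup.mk' (Subgroup.center SL3)
  have hπ : Function.Injective π := by
    rw [← MonoidHom.ker_eq_bot_iff, QuotientGroup.ker_mk', center_SL3]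
  let ψ : SL3 →* G := H.subtype.comp (e.symm.toMonoidHom.comp π)
  have hψ : Function.Injective ψ := H.subtype_injective.comp (e.symm.injective.comp hπ)
  have hH : ∀ x, ψ x ∈ H := fun x => (e.symm (π x)).2
  have hs : IsSimpleGroup PSL3 := Cfsg.Agent.S0249.result (F := ZMod 3) 3 le_rfl
  refine ⟨⟨ψ aS, fun p => ψ (uS p), ?_, ?_, hH _, fun p => hH _, ?_, ?_, hψ.comp uS_inj, ?_, ?_⟩⟩
  · rw [Nat.card_congr e.toEquiv, card_PSL3]
  · exact e.isSimpleGroup
  · rw [orderOf_injective ψ hψ]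
    haveI : Fact (Nat.Prime 13) := ⟨by norm_num⟩
    exact orderOf_eq_prime aS_pow aS_ne
  · intro p q
    rw [← map_mul, uS_mul]
  · rw [← map_mul, bS_conj, map_mul, map_pow]
  · intro i
    exact ⟨ψ (gS i), hH _, by rw [← map_mul, gS_conj, map_mul]⟩

end Cfsg.Agent.BX.L33
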